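import Cfsg.Agent.H287.F4.Split
import Cfsg.Agent.H258.QF.Class
import Cfsg.Agent.H590.F4.CFive

/-!
# `²E₆(2)`: the classification of the elements (S2491, row F4, box C)

* `classification_main` : from K1, K2 and the three local pieces: E7, the elements of order divisible by `7` or by a big
  prime with a centralizer of odd order.
-/

set_option autoImplicit false
set_option linter.unusedSectionVars false

namespace Cfsg.Agent.H287.F4.Cls

open CoxeterSystem Cfsg.Agent.ChevalleyStructure.CoxeterGeom Cfsg.Agent.Tits.Roots Cfsg.Agent.Tits.Core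
  Cfsg.Agent.Nodes Cfsg.Agent.Nodes.Reps Cfsg.Agent.Nodes.BNOf Cfsg.Agent.Nodes.RGDLib Cfsg.Agent.Nodes.Bruhat
  Cfsg.Agent.Nodes.OppDec Cfsg.Agent.Nodes.LeviDec Cfsg.Agent.Nodes.StabComb
open Cfsg.Lie Subgroup
open Cfsg.Agent.H231.QF (cs X V Lv P j1 j2 j3 j4 In Out CR Sm RE th)
open Cfsg.Agent.H258.QF (in_of_cr in_or_out prime_cases finite_KK)

universe u

/-- the group -/
local notation "YY" => Cfsg.Agent.H231.QF.KK

variable {F : Type u} [Field F] [Fintype F] (hF : Fintype.card F = 4) {φ : F →+* F} (hφ : ∀ t, φ t = t ^ 2)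
  (hre : ∀ t : YY F, RE t ↔ t ≠ 1 ∧ ∃ x : YY F, x * t * x⁻¹ ∈ X φ th)
  (hcen : ∀ {t : YY F}, t ∈ X φ th → t ≠ 1 → centralizer ({t} : Set (YY F)) = P φ j1)

/-- E7 -/
def E7 (φ : F →+* F) : Prop := ∀ g z : YY F, g ∈ P φ j2 → z ∈ V φ j2 → z ≠ 1 → z * z = 1 → g * z = z * g →
  7 ∣ orderOf g → CR g

omit [Fintype F] in
theorem in_conj {J : Set (Fin 4)} {g x : YY F} (h : In φ J (x * g * x⁻¹)) : In φ J g := by
  obtain ⟨y, hy⟩ := h
  refine ⟨y * x, ?_⟩
  have e : y * x * g * (y * x)⁻¹ = y * (x * g * x⁻¹) * y⁻¹ := by group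
  rw [e]
  exact hy

include hF hφ hre hcen

/-- an element commuting with an involution -/
theorem even_case (e7 : E7 φ) (g z : YY F) (hz : z ≠ 1) (hz2 : z * z = 1) (hc : g * z = z * g) :
    In φ j1 g ∨ Cfsg.Agent.H231.QF.Out φ j4 g ∨ Sm g := by
  rcases Par.par_split hF hφ g z hz hz2 hc with h | h | ⟨x, h1, h2, h3⟩ | ⟨x, J, -, -, -, h3⟩
  · exact Or.inl h
  · rcases in_or_out h with h | h
    · exact Or.inl h
    · exact Or.inr (Or.inl h)
  · have hz' : x * z * x⁻¹ ≠ 1 := by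
      intro h
      apply hz
      calc z = x⁻¹ * (x * z * x⁻¹) * x := by group
        _ = 1 := by rw [h]; group
    have hz2' : x * z * x⁻¹ * (x * z * x⁻¹) = 1 := by
      calc x * z * x⁻¹ * (x * z * x⁻¹) = x * (z * z) * x⁻¹ := by group
        _ = 1 := by rw [hz2]; group
    have hc' : x * g * x⁻¹ * (x * z * x⁻¹) = x * z * x⁻¹ * (x * g * x⁻¹) := by
      calc x * g * x⁻¹ * (x * z * x⁻¹) = x * (g * z) * x⁻¹ := by group
        _ = x * z * x⁻¹ * (x * g * x⁻¹) := by rw [hc]; group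
    exact Or.inl (in_conj (in_of_cr hre hcen (e7 _ _ h1 h2 hz' hz2' hc' h3)))
  · have ho : orderOf (x * g * x⁻¹) = orderOf g := by
      have h5 : x * g * x⁻¹ = MulAut.conj x g := by rw [MulAut.conj_apply]
      rw [h5]
      exact orderOf_injective (MulAut.conj x).toMonoidHom (MulAut.conj x).injective g
    rw [ho] at h3
    rcases Cfsg.Agent.H590.F4.CFive.c_five hF hφ g h3 with h | h
    · exact Or.inl (in_of_cr hre hcen h)
    · exact Or.inr (Or.inr h)

/-- **The classification.** -/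
theorem classification_main (e7 : E7 φ)
    (h7 : ∀ g : YY F, 7 ∣ orderOf g → Odd (Nat.card (centralizer ({g} : Set (YY F)))) → Sm g)
    (hb : ∀ (g : YY F) (p : ℕ), (p = 11 ∨ p = 13 ∨ p = 17 ∨ p = 19) → p ∣ orderOf g →
      Odd (Nat.card (centralizer ({g} : Set (YY F)))) → Sm g) (g : YY F) :
    In φ j1 g ∨ Cfsg.Agent.H231.QF.Out φ j4 g ∨ Sm g ∨ ∃ k : ℕ, g ^ 3 ^ k = 1 := by
  have : Finite (YY F) := finite_KK
  by_cases hodd : Odd (Nat.card (centralizer ({g} : Set (YY F))))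
  swap
  · rw [Nat.not_odd_iff_even, even_iff_two_dvd] at hodd
    obtain ⟨⟨z, hzc⟩, hz⟩ := exists_prime_orderOf_dvd_card' 2 hodd
    rw [Subgroup.orderOf_mk] at hz
    have hz1 : z ≠ 1 := by
      rintro rfl
      rw [orderOf_one] at hz
      norm_num at hz
    have hz2 : z * z = 1 := by
      rw [← pow_two]
      have h6 := pow_orderOf_eq_one z
      rwa [hz] at h6
    have hgz : g * z = z * g := by
      rw [mem_centralizer_singleton_iff] at hzc
      first
        | exact hzc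
        | exact hzc.symm
    rcases even_case hF hφ hre hcen e7 g z hz1 hz2 hgz with h | h | h
    · exact Or.inl h
    · exact Or.inr (Or.inl h)
    · exact Or.inr (Or.inr (Or.inl h))
  by_cases c5 : 5 ∣ orderOf g
  · rcases Cfsg.Agent.H590.F4.CFive.c_five hF hφ g c5 with h | h
    · exact Or.inl (in_of_cr hre hcen h)
    · exact Or.inr (Or.inr (Or.inl h))
  by_cases c7 : 7 ∣ orderOf g
  · exact Or.inr (Or.inr (Or.inl (h7 g c7 hodd)))
  by_cases cb : ∃ p, (p = 11 ∨ p = 13 ∨ p = 17 ∨ p = 19) ∧ p ∣ orderOf g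
  · obtain ⟨p, hp, hd⟩ := cb
    exact Or.inr (Or.inr (Or.inl (hb g p hp hd hodd)))
  have cb' : ∀ p, (p = 11 ∨ p = 13 ∨ p = 17 ∨ p = 19) → ¬ p ∣ orderOf g := fun p hp hd => cb ⟨p, hp, hd⟩
  have c2 : ¬ 2 ∣ orderOf g := by
    intro h2
    have h3 : orderOf g ∣ Nat.card (centralizer ({g} : Set (YY F))) := by
      have h4 : g ∈ centralizer ({g} : Set (YY F)) := mem_centralizer_singleton_iff.2 rfl
      have h5 := orderOf_dvd_natCard (⟨g, h4⟩ : centralizer ({g} : Set (YY F)))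
      rwa [Subgroup.orderOf_mk] at h5
    exact (Nat.not_even_iff_odd.2 hodd) (even_iff_two_dvd.2 (h2.trans h3))
  refine Or.inr (Or.inr (Or.inr ?_))
  have h3 : ∀ p : ℕ, p.Prime → p ∣ orderOf g → p = 3 := by
    intro p hp hd
    rcases prime_cases hF hp hd with h | h | h | h | h | h | h | h
    · exact absurd (h ▸ hd) c2
    · exact h
    · exact absurd (h ▸ hd) c5
    · exact absurd (h ▸ hd) c7
    · exact absurd hd (cb' p (Or.inl h))
    · exact absurd hd (cb' p (Or.inr (Or.inl h)))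
    · exact absurd hd (cb' p (Or.inr (Or.inr (Or.inl h))))
    · exact absurd hd (cb' p (Or.inr (Or.inr (Or.inr h))))
  refine ⟨(orderOf g).primeFactorsList.length, ?_⟩
  have h4 := Nat.eq_prime_pow_of_unique_prime_dvd (orderOf_pos g).ne' (fun {d} hd => h3 d hd)
  rw [← h4, pow_orderOf_eq_one]

end Cfsg.Agent.H287.F4.Cls
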